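/- R7, job T7, part 0: four-coloured simple connectivity with weaker common-neighbour hypotheses. -/
import Cfsg.Agent.Base

set_option autoImplicit false

namespace H27.R7

/-- A cocycle on the triangles is a coboundary. -/
theorem cobound {Y G : Type*} [Group G] (col : Y → Fin 4) (adj : Y → Y → Prop) (o : Y) (c : Y → Y → G)
    (sy : ∀ y y', adj y y' → adj y' y) (ne : ∀ y y', adj y y' → col y ≠ col y')
    (cn3 : ∀ k y1 y2 y3, col y1 ≠ k → col y2 ≠ k → col y3 ≠ k →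
      ∃ z, col z = k ∧ adj z y1 ∧ adj z y2 ∧ adj z y3)
    (cn4 : ∀ k y1 y2 y3 y4, col y1 ≠ k → col y2 ≠ k → col y3 ≠ k → col y4 ≠ k → adj y3 y1 → adj y3 y2 →
      adj y4 y1 → adj y4 y2 → ∃ z, col z = k ∧ adj z y1 ∧ adj z y2 ∧ adj z y3 ∧ adj z y4)
    (tr : ∀ x y z, adj x y → adj y z → adj x z → c x y * c y z = c x z) :
    ∃ a : Y → G, ∀ y y', adj y y' → a y' = a y * c y y' := by
  have miss : ∀ a b c : Fin 4, ∃ k, a ≠ k ∧ b ≠ k ∧ c ≠ k := by decide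
  have st : ∀ w z u, adj z o → adj z w → adj u o → adj u w → adj u z → c o z * c z w = c o u * c u w :=
    fun w z u a1 a2 b1 b2 e => by
      rw [← tr z u w (sy _ _ e) b2 a2, ← mul_assoc, tr o z u (sy _ _ a1) (sy _ _ e) (sy _ _ b1)]
  have iA : ∀ w z z' k, adj z o → adj z w → adj z' o → adj z' w → col o ≠ k → col w ≠ k → col z ≠ k →
      col z' ≠ k → c o z * c z w = c o z' * c z' w := fun w z z' k a1 a2 b1 b2 h1 h2 h3 h4 => by
    obtain ⟨u, -, u1, u2, u3, u4⟩ := cn4 k o w z z' h1 h2 h3 h4 a1 a2 b1 b2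
    rw [st w z u a1 a2 u1 u2 u3, st w z' u b1 b2 u1 u2 u4]
  have ind : ∀ w z z', adj z o → adj z w → adj z' o → adj z' w → c o z * c z w = c o z' * c z' w :=
    fun w z z' a1 a2 b1 b2 => by
      obtain ⟨k, h1, h2, h3⟩ := miss (col o) (col w) (col z)
      by_cases e : col z' = col z
      · exact iA w z z' k a1 a2 b1 b2 h1 h2 h3 (e ▸ h3)
      obtain ⟨u, eu, u1, u2, u3⟩ := cn3 (col z) o w z' (ne _ _ a1).symm (ne _ _ a2).symm e
      rw [iA w z u k a1 a2 u1 u2 h1 h2 h3 (eu ▸ h3), st w z' u b1 b2 u1 u2 u3]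
  have ex : ∀ w w', ∃ z, adj z o ∧ adj z w ∧ adj z w' := fun w w' => by
    obtain ⟨k, h1, h2, h3⟩ := miss (col o) (col w) (col w')
    obtain ⟨u, -, u1, u2, u3⟩ := cn3 k o w w' h1 h2 h3
    exact ⟨u, u1, u2, u3⟩
  choose z z1 z2 _ using fun w => ex w w
  refine ⟨fun w => c o (z w) * c (z w) w, fun w w' e => ?_⟩
  obtain ⟨u, u1, u2, u3⟩ := ex w w'
  beta_reduce
  rw [ind w _ u (z1 w) (z2 w) u1 u2, ind w' _ u (z1 w') (z2 w') u1 u3, mul_assoc, tr u w w' u2 e u3]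

theorem tits0 {X G Y : Type*} [Group X] [Group G] [MulAction X Y]
    (col : Y → Fin 4) (adj : Y → Y → Prop) (v : Fin 4 → Y) (φ : Fin 4 → X → G)
    (sy : ∀ y y', adj y y' → adj y' y) (ne : ∀ y y', adj y y' → col y ≠ col y')
    (cx : ∀ (x : X) y, col (x • y) = col y) (ax : ∀ (x : X) y y', adj y y' → adj (x • y) (x • y'))
    (cv : ∀ j, col (v j) = j) (av : ∀ j k, j ≠ k → adj (v j) (v k))
    (t1 : ∀ y, ∃ x : X, x • v (col y) = y)
    (t2 : ∀ j y, adj (v j) y → ∃ x : X, x • v j = v j ∧ x • v (col y) = y)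
    (t3 : ∀ j k y, j ≠ k → adj (v j) y → adj (v k) y →
      ∃ x : X, x • v j = v j ∧ x • v k = v k ∧ x • v (col y) = y)
    (cn3 : ∀ k y1 y2 y3, col y1 ≠ k → col y2 ≠ k → col y3 ≠ k →
      ∃ z, col z = k ∧ adj z y1 ∧ adj z y2 ∧ adj z y3)
    (cn4 : ∀ k y1 y2 y3 y4, col y1 ≠ k → col y2 ≠ k → col y3 ≠ k → col y4 ≠ k → adj y3 y1 → adj y3 y2 →
      adj y4 y1 → adj y4 y2 → ∃ z, col z = k ∧ adj z y1 ∧ adj z y2 ∧ adj z y3 ∧ adj z y4)
    (hom : ∀ j (x x' : X), x • v j = v j → x' • v j = v j → φ j (x * x') = φ j x * φ j x')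
    (cp : ∀ j k (x : X), x • v j = v j → x • v k = v k → φ j x = φ k x) :
    (∃ Φ : X →* G, ∀ j (x : X), x • v j = v j → Φ x = φ j x) ∧
      ∀ K : Subgroup X, (∀ j (x : X), x • v j = v j → x ∈ K) → K = ⊤ := by
  have gen : ∀ K : Subgroup X, (∀ j (x : X), x • v j = v j → x ∈ K) → K = ⊤ := fun K hK => by
    have nb : ∀ y y', adj y y' → (∃ x ∈ K, x • v (col y) = y) → ∃ x ∈ K, x • v (col y') = y' := by
      rintro y y' e ⟨x, hx, ex⟩
      obtain ⟨s, s1, s2⟩ := t2 (col y) (x⁻¹ • y') (inv_smul_eq_iff.2 ex.symm ▸ ax x⁻¹ _ _ e)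
      exact ⟨x * s, mul_mem hx (hK _ s s1), by rw [mul_smul, ← cx x⁻¹, s2, smul_inv_smul]⟩
    refine (Subgroup.eq_top_iff' K).2 fun x => ?_
    obtain ⟨z, -, hz0, hz1, -⟩ := cn3 1 (v 0) (x • v 0) (v 0) (by simp [cv]) (by simp [cx, cv]) (by simp [cv])
    obtain ⟨k, hk, e⟩ := nb _ _ hz1 (nb _ _ (sy _ _ hz0) ⟨1, one_mem K, by simp [cv]⟩)
    refine (K.mul_mem_cancel_left (inv_mem hk)).1 (hK 0 _ ?_)
    simp only [cx, cv] at e
    rw [mul_smul, ← e, inv_smul_smul]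
  refine ⟨?_, gen⟩
  choose r hr using t1
  let p : Fin 4 → X → G := fun j x => φ j ((r (x • v j))⁻¹ * x)
  have hp : ∀ j x s, s • v j = v j → p j (x * s) = p j x * φ j s := fun j x s e => by
    simp only [p]
    rw [mul_smul, e, ← mul_assoc, hom j _ s _ e]
    simpa only [mul_smul, inv_smul_eq_iff, cx, cv] using (hr (x • v j)).symm
  have exc : ∀ y y', ∃ g : G, ∀ x : X, x • v (col y) = y → x • v (col y') = y' →
      g = p (col y) x * (p (col y') x)⁻¹ := fun y y' => by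
    by_cases h : ∃ x : X, x • v (col y) = y ∧ x • v (col y') = y'
    · obtain ⟨x₀, a1, a2⟩ := h
      refine ⟨p (col y) x₀ * (p (col y') x₀)⁻¹, fun x b1 b2 => ?_⟩
      have s1 : (x₀⁻¹ * x) • v (col y) = v (col y) := by rw [mul_smul, b1, inv_smul_eq_iff, a1]
      have s2 : (x₀⁻¹ * x) • v (col y') = v (col y') := by rw [mul_smul, b2, inv_smul_eq_iff, a2]
      rw [← mul_inv_cancel_left x₀ x, hp _ _ _ s1, hp _ _ _ s2, cp _ _ _ s1 s2]
      group
    · exact ⟨1, fun x b1 b2 => (h ⟨x, b1, b2⟩).elim⟩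
  choose c hc using exc
  obtain ⟨a, ha⟩ := cobound col adj (v 0) c sy ne cn3 cn4 fun y1 y2 y3 e12 e23 e13 => by
    have i1 : (r y1)⁻¹ • y1 = v (col y1) := by rw [inv_smul_eq_iff, hr]
    obtain ⟨s, s1, s2⟩ := t2 (col y1) ((r y1)⁻¹ • y2) (i1 ▸ ax _ _ _ e12)
    rw [cx] at s2
    have m1 : (r y1 * s) • v (col y1) = y1 := by rw [mul_smul, s1, hr]
    have m2 : (r y1 * s) • v (col y2) = y2 := by rw [mul_smul, s2, smul_inv_smul]
    generalize r y1 * s = x at m1 m2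
    obtain ⟨s, s1, s2, s3⟩ := t3 (col y1) (col y2) (x⁻¹ • y3) (ne _ _ e12)
      (inv_smul_eq_iff.2 m1.symm ▸ ax x⁻¹ _ _ e13) (inv_smul_eq_iff.2 m2.symm ▸ ax x⁻¹ _ _ e23)
    rw [cx] at s3
    have n1 : (x * s) • v (col y1) = y1 := by rw [mul_smul, s1, m1]
    have n2 : (x * s) • v (col y2) = y2 := by rw [mul_smul, s2, m2]
    have n3 : (x * s) • v (col y3) = y3 := by rw [mul_smul, s3, smul_inv_smul]
    rw [hc _ _ _ n1 n2, hc _ _ _ n2 n3, hc _ _ _ n1 n3]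
    group
  let ψ : X → G := fun x => a (x • v 0) * p 0 x
  have ψj : ∀ j x, ψ x = a (x • v j) * p j x := fun j x => by
    by_cases e : 0 = j
    · rw [← e]
    rw [ha _ _ (ax x _ _ (av 0 j e)), hc _ _ x (by rw [cx, cv]) (by rw [cx, cv]), cx, cx, cv, cv]
    simp only [ψ]
    group
  have ψs : ∀ j x s, s • v j = v j → (ψ 1)⁻¹ * ψ (x * s) = (ψ 1)⁻¹ * ψ x * φ j s := fun j x s e => by
    rw [ψj j (x * s), ψj j x, hp j x s e, mul_smul, e]
    group
  have ψ1 : ∀ j s, s • v j = v j → (ψ 1)⁻¹ * ψ s = φ j s := fun j s e => by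
    simpa using ψs j 1 s e
  generalize hΦ : (fun x => (ψ 1)⁻¹ * ψ x) = Φ
  simp only [congrFun hΦ] at ψs ψ1
  let K : Subgroup X :=
    { carrier := {x | ∀ e, Φ (e * x) = Φ e * Φ x}
      one_mem' := fun e => by simp [← hΦ]
      mul_mem' := fun {x y} hx hy e => by rw [← mul_assoc, hy, hx, hy, mul_assoc]
      inv_mem' := fun {x} hx e => by
        have h1 := hx (e * x⁻¹)
        have h2 := hx x⁻¹
        rw [inv_mul_cancel, show Φ 1 = 1 by simp [← hΦ]] at h2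
        rw [inv_mul_cancel_right] at h1
        rw [h1, mul_assoc, mul_eq_one_comm.1 h2.symm, mul_one] }
  have hK := gen K fun j s e x => by rw [ψs j x s e, ψ1 j s e]
  exact ⟨MonoidHom.mk' Φ fun x y => (hK.ge (Subgroup.mem_top y) : y ∈ K) x, ψ1⟩

end H27.R7
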